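import Cfsg.Agent.H2.Cls2
import Cfsg.Agent.S0144

/-! Perfect groups preserving an anisotropic quadratic map into a four-group. -/

set_option autoImplicit false
set_option linter.unusedVariables false

namespace Cfsg.Agent.H89.Inv3

open Subgroup

variable {L : Type*} [Group L] [Group.IsPerfect L]

theorem triv_solv {H : Type*} [Group H] (f : L →* H) (h : Group.IsSolvable f.range) (l : L) :
    f l = 1 := by
  by_contra k
  haveI : Group.IsPerfect f.range := Group.IsPerfect.range f
  haveI : Nontrivial f.range := ⟨⟨⟨f l, l, rfl⟩, 1, fun e => k (congrArg Subtype.val e)⟩⟩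
  exact Group.IsPerfect.not_isSolvable f.range h

theorem triv_two {H : Type*} [Group H] [Finite H] (f : L →* H) {p q : ℕ} (hp : p.Prime)
    (hq : q.Prime) (h : ∀ l r, r.Prime → orderOf (f l) = r → r = p ∨ r = q) (l : L) : f l = 1 := by
  refine triv_solv f ?_ l
  have h0 : Nat.card f.range ≠ 0 := Nat.card_pos.ne'
  have k : ∀ r, r.Prime → r ∣ Nat.card f.range → r = p ∨ r = q := fun r hr hd => by
    haveI := Fact.mk hr
    obtain ⟨⟨_, l, rfl⟩, e⟩ := exists_prime_orderOf_dvd_card' r hd
    exact h l r hr ((orderOf_coe _).trans e)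
  obtain ⟨a, m, hm, e⟩ := Nat.exists_eq_pow_mul_and_not_dvd h0 p hp.ne_one
  have m0 : m ≠ 0 := fun e' => hm (e' ▸ dvd_zero p)
  refine S0144.result p q a _ hp hq (e.trans (congrArg _ (Nat.eq_prime_pow_of_unique_prime_dvd m0
    fun {r} hr hd => (k r hr (e ▸ hd.mul_left _)).resolve_left fun e' => hm (e' ▸ hd))))

/-- restriction of an action to an invariant set -/
@[reducible] def res {T : Type*} [MulAction L T] (S : Set T) (h : ∀ (l : L), ∀ x ∈ S, l • x ∈ S) :
    MulAction L S where
  smul l x := ⟨l • x.1, h l _ x.2⟩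
  one_smul x := Subtype.ext (one_smul L x.1)
  mul_smul l m x := Subtype.ext (mul_smul l m x.1)

theorem small {T : Type*} [MulAction L T] (S : Set T) (hf : S.Finite) (h4 : S.ncard ≤ 4)
    (h : ∀ (l : L), ∀ x ∈ S, l • x ∈ S) (l : L) {x : T} (hx : x ∈ S) : l • x = x := by
  classical
  letI := res S h
  haveI : Finite S := hf
  haveI := Fintype.ofFinite S
  have := triv_two (MulAction.toPermHom L S) Nat.prime_two Nat.prime_three (fun l r hr e => by
    have k := orderOf_dvd_card (x := MulAction.toPermHom L S l)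
    rw [e, Fintype.card_perm, hr.dvd_factorial, ← Nat.card_eq_fintype_card] at k
    have k2 : r ≤ 4 := k.trans h4
    have := hr.two_le
    interval_cases r
    · exact Or.inl rfl
    · exact Or.inr rfl
    · exact absurd hr (by decide)) l
  exact congrArg Subtype.val (DFunLike.congr_fun this ⟨x, hx⟩)

omit [Group.IsPerfect L] in
theorem fix_mod {T : Type*} [MulAction L T] (S : Set T) (hf : S.Finite)
    (h : ∀ (l : L), ∀ x ∈ S, l • x ∈ S) (l : L) {r : ℕ} (hr : r.Prime)
    (hl : ∀ x : T, l ^ r • x = x) : S.ncard ≡ (S ∩ {x | l • x = x}).ncard [MOD r] := by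
  classical
  letI := res S h
  haveI : Finite S := hf
  haveI := Fintype.ofFinite S
  haveI := Fact.mk hr
  have := Equiv.Perm.card_fixedPoints_modEq (p := r) (n := 1)
    (f := (MulAction.toEndHom (M := L) (α := S)) l) (by
      rw [← map_pow, pow_one]; funext x; exact Subtype.ext (hl x))
  rw [Fintype.card_eq_nat_card, Fintype.card_eq_nat_card] at this
  refine this.trans (by
    rw [Nat.card_congr (β := ↥(S ∩ {x | l • x = x})) ⟨fun x => ⟨x.1.1, x.1.2,
      congrArg Subtype.val x.2⟩, fun x => ⟨⟨x.1, x.2.1⟩, Subtype.ext x.2.2⟩, fun _ => rfl,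
      fun _ => rfl⟩]
    rfl)

theorem core {V W : Type*} [AddCommGroup V] [AddCommGroup W] [Finite V] [Finite W]
    [DistribMulAction L V] (hV : ∀ x : V, 2 • x = 0) (hW : ∀ x : W, 2 • x = 0) (Q : V → W)
    (hQ0 : Q 0 = 0) (hadd : ∀ x x' y, Q (x + x' + y) - Q (x + x') - Q y =
      (Q (x + y) - Q x - Q y) + (Q (x' + y) - Q x' - Q y))
    (hani : ∀ x, Q x = 0 → x = 0) (h4 : Nat.card W ≤ 4) (hL : ∀ (l : L) x, Q (l • x) = Q x)
    (hfix : ∀ v : V, (∀ l : L, l • v = v) → v = 0) (v : V) : v = 0 := by
  classical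
  by_contra v0
  have big : ∀ S : Set V, (∀ (l : L), ∀ x ∈ S, l • x ∈ S) → ∀ x ∈ S, x ≠ 0 → 5 ≤ S.ncard :=
    fun S h x hx x0 => by
      by_contra k
      exact x0 (hfix x fun l => small S (Set.toFinite S) (by omega) h l hx)
  have V5 := big Set.univ (fun _ _ _ => trivial) v trivial v0
  rw [Set.ncard_univ] at V5
  have hle := H38.card_le_sq_of_anisotropic hV hW Q hQ0 hadd hani
  have fib : ∀ z : W, z ≠ 0 → 5 ≤ {x | Q x = z}.ncard := fun z z0 => by
    by_contra k
    have k1 := H38.card_le_sq_of_anisotropic (W := W ⧸ AddSubgroup.zmultiples z) hV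
      (fun x => by
        obtain ⟨w, rfl⟩ := QuotientAddGroup.mk_surjective x
        rw [← QuotientAddGroup.mk_nsmul, hW]; rfl)
      (fun x => (Q x : W ⧸ AddSubgroup.zmultiples z)) (by simp only [hQ0]; rfl)
      (fun x x' y => by
        simp only [← QuotientAddGroup.mk_sub, ← QuotientAddGroup.mk_add, hadd])
      (fun x hx => by
        by_contra x0
        obtain ⟨n, hn⟩ := (QuotientAddGroup.eq_zero_iff _).1 hx
        have e : Q x = z := by
          obtain ⟨m, rfl | rfl⟩ := Int.even_or_odd' n
          · refine absurd (hani x ?_) x0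
            rw [← hn]; simp only [mul_comm 2 m, mul_smul, two_smul]
            rw [← two_nsmul, hW, smul_zero]
          · rw [← hn]; simp only [add_smul, mul_comm 2 m, mul_smul, two_smul, one_smul]
            rw [← two_nsmul, hW, smul_zero, zero_add]
        exact k (big _ (fun l y hy => (hL l y).trans hy) x e x0))
    have k2 := AddSubgroup.card_eq_card_quotient_mul_card_addSubgroup (AddSubgroup.zmultiples z)
    have k3 : 1 < Nat.card (AddSubgroup.zmultiples z) :=
      (AddSubgroup.one_lt_card_iff_ne_bot _).2 (by simpa using z0)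
    have k4 : Nat.card (W ⧸ AddSubgroup.zmultiples z) ≤ 2 := by nlinarith
    nlinarith
  have two : ∀ x : W, x + x = 0 := fun x => by rw [← two_nsmul, hW]
  have z1 : Q v ≠ 0 := fun e => v0 (hani v e)
  obtain ⟨z2, k0, k1⟩ : ∃ z2 : W, z2 ≠ 0 ∧ z2 ≠ Q v := by
    by_contra! k
    have : Nat.card W ≤ 2 := by
      rw [← Set.ncard_univ]
      refine (Set.ncard_le_ncard (t := {0, Q v}) (fun x _ => ?_) (Set.toFinite _)).trans
        (Set.ncard_insert_le _ _ |>.trans (by simp))
      by_cases e : x = 0
      · exact Or.inl e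
      · exact Or.inr (k x e)
    nlinarith
  have k2 : Q v + z2 ≠ 0 := fun e => k1 (add_left_cancel (e.trans (two _).symm))
  have k3 : Q v + z2 ≠ Q v := by simpa using k0
  have k4 : Q v + z2 ≠ z2 := by simpa using z1
  have cnt : ∀ S : Set V, 0 ∈ S → 1 + ({x | Q x = Q v} ∩ S).ncard + ({x | Q x = z2} ∩ S).ncard +
      ({x | Q x = Q v + z2} ∩ S).ncard ≤ S.ncard := fun S h0 => by
    rw [← Set.ncard_singleton (0 : V), ← Set.ncard_union_eq, ← Set.ncard_union_eq,
      ← Set.ncard_union_eq]
    · refine Set.ncard_le_ncard ?_ (Set.toFinite _)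
      rintro x (((rfl | k) | k) | k)
      exacts [h0, k.2, k.2, k.2]
    · rw [Set.disjoint_left]
      rintro x ((rfl | k) | k) k'
      exacts [k2 (k'.1.symm.trans hQ0), k3 (k'.1.symm.trans k.1), k4 (k'.1.symm.trans k.1)]
    · rw [Set.disjoint_left]
      rintro x (rfl | k) k'
      exacts [k0 (k'.1.symm.trans hQ0), k1 (k'.1.symm.trans k.1)]
    · rw [Set.disjoint_left]
      rintro x rfl k'
      exact z1 (k'.1.symm.trans hQ0)
  have c1 := cnt Set.univ trivial
  simp only [Set.inter_univ, Set.ncard_univ] at c1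
  have f1 := fib _ z1
  have f2 := fib _ k0
  have f3 := fib _ k2
  have V16 : Nat.card V = 16 := by nlinarith
  have := triv_two (MulAction.toPermHom L V) Nat.prime_two Nat.prime_five (fun l r hr e => by
    by_contra! k
    have hl : ∀ x : V, l ^ r • x = x := fun x => by
      have := pow_orderOf_eq_one (MulAction.toPermHom L V l)
      rw [e, ← map_pow] at this
      exact DFunLike.congr_fun this x
    have m : ∀ z, {x | Q x = z}.ncard = 5 → 2 ≤ ({x | Q x = z} ∩ {x | l • x = x}).ncard :=
      fun z hz => by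
        have m1 := fix_mod {x | Q x = z} (Set.toFinite _) (fun l y hy => (hL l y).trans hy) l hr hl
        by_contra m2
        rw [hz] at m1
        have m3 := (Nat.modEq_iff_dvd' (by omega)).1 m1.symm
        have : ({x | Q x = z} ∩ {x | l • x = x}).ncard = 0 ∨
            ({x | Q x = z} ∩ {x | l • x = x}).ncard = 1 := by omega
        rcases this with m4 | m4 <;> rw [m4] at m3
        · exact k.2 ((Nat.prime_dvd_prime_iff_eq hr Nat.prime_five).1 m3)
        · exact k.1 ((Nat.prime_dvd_prime_iff_eq hr Nat.prime_two).1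
            (hr.dvd_of_dvd_pow (n := 2) m3))
    let F : AddSubgroup V :=
      { carrier := {x | l • x = x}
        add_mem' := fun {a b} ha hb => by
          change l • (a + b) = a + b
          rw [smul_add, show l • a = a from ha, show l • b = b from hb]
        zero_mem' := smul_zero l
        neg_mem' := fun {a} ha => by
          change l • (-a) = -a
          rw [smul_neg, show l • a = a from ha] }
    have c2 := cnt {x | l • x = x} (smul_zero l)
    have m1 := m (Q v) (by omega)
    have m2 := m z2 (by omega)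
    have m3 := m (Q v + z2) (by omega)
    have m4 := fix_mod Set.univ (Set.toFinite _) (fun _ _ _ => trivial) l hr hl
    rw [Set.univ_inter, Set.ncard_univ, V16] at m4
    have m5 : {x : V | l • x = x}.ncard ∣ 2 ^ 4 :=
      F.card_addSubgroup_dvd_card.trans (by rw [V16]; rfl)
    obtain ⟨i, i4, m6⟩ := (Nat.dvd_prime_pow Nat.prime_two).1 m5
    have : i = 3 ∨ i = 4 := by
      rw [m6] at c2
      interval_cases i <;> omega
    rcases this with rfl | rfl
    · rw [m6] at m4
      exact k.1 ((Nat.prime_dvd_prime_iff_eq hr Nat.prime_two).1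
        (hr.dvd_of_dvd_pow (n := 3) ((Nat.modEq_iff_dvd' (by omega)).1 m4.symm)))
    · have m7 : {x : V | l • x = x} = Set.univ :=
        Set.eq_of_subset_of_ncard_le (Set.subset_univ _) (by rw [m6, Set.ncard_univ, V16]; rfl)
          (Set.toFinite _)
      have : MulAction.toPermHom L V l = 1 := Equiv.ext fun x => (m7 ▸ Set.mem_univ x :)
      rw [this, orderOf_one] at e
      exact hr.ne_one e.symm)
  exact v0 (hfix v fun l => DFunLike.congr_fun (this l) v)

end Cfsg.Agent.H89.Inv3
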