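import Cfsg.Agent.H35.RfQ
import Cfsg.Agent.H42.Flags

/-! Project RF, piece QD: the complement `Q / W` is normalised by the whole octad group. -/

set_option autoImplicit false
set_option linter.unusedVariables false

namespace Cfsg.Agent.H89.RfQd

open Cfsg Subgroup Cfsg.Agent.H42 Cfsg.Agent.H18.Rf Cfsg.Agent.H35.RF
open Cfsg.Agent.H48 (IsWord)
open scoped commutatorElement Pointwise

universe u

section Conj

variable {G : Type u} [Group G]

/-- the conjugate of a subgroup -/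
abbrev cj (g : G) (A : Subgroup G) : Subgroup G := A.map (MulAut.conj g).toMonoidHom

theorem mem_cj {g x : G} {A : Subgroup G} : x ∈ cj g A ↔ g⁻¹ * x * g ∈ A := by
  constructor
  · rintro ⟨a, ha, rfl⟩
    simpa [mul_assoc] using ha
  · intro h
    exact ⟨_, h, by simp [mul_assoc]⟩

theorem cj_eq_of_mem {g : G} {A : Subgroup G} (h : g ∈ NN A) : cj g A = A := by
  ext x
  rw [mem_cj]
  exact (mem_normalizer_iff''.1 h x).symm

theorem mem_NN_of_cj {g : G} {A : Subgroup G} (h : cj g A = A) : g ∈ NN A := by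
  refine mem_normalizer_iff''.2 fun x => ?_
  have : x ∈ cj g A ↔ x ∈ A := by rw [h]
  rw [mem_cj] at this
  exact this.symm

theorem cj_inf (g : G) (A B : Subgroup G) : cj g (A ⊓ B) = cj g A ⊓ cj g B := by
  ext x
  simp only [mem_cj, mem_inf]

theorem cj_sup (g : G) (A B : Subgroup G) : cj g (A ⊔ B) = cj g A ⊔ cj g B :=
  Subgroup.map_sup _ _ _

theorem mem_NN_cj {g x : G} {A : Subgroup G} (h : g⁻¹ * x * g ∈ NN A) : x ∈ NN (cj g A) := by
  refine mem_normalizer_iff.2 fun y => ?_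
  have h1 := mem_normalizer_iff.1 h (g⁻¹ * y * g)
  have e : g⁻¹ * x * g * (g⁻¹ * y * g) * (g⁻¹ * x * g)⁻¹ = g⁻¹ * (x * y * x⁻¹) * g := by group
  rw [e] at h1
  change y ∈ cj g A ↔ x * y * x⁻¹ ∈ cj g A
  rw [mem_cj, mem_cj]
  exact h1

end Conj

theorem qd (kit : KitGStmt.{u}) (va : VaGStmt.{u}) (q1 : Qd1Stmt.{u}) (q2 : Qd2Stmt.{u})
    (q3 : Qd3Stmt.{u}) : QdStmt.{u} := by
  intro G _ _ V ρ ψ st gol
  have hM : MM V (ψ o0) = pre V ρ GO := (kit G V ρ ψ st gol).1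
  have hva : Va V (ψ o0) (WG ψ) (RG V ρ) := (va G V ρ ψ st gol).1
  obtain ⟨K, hK1, hK2⟩ := q1 G V ρ ψ st gol
  have hPN : pre V ρ G23 ≤ NN V := fun g hg => (mem_pre.1 hg).1
  have hRP : RG V ρ ≤ pre V ρ G23 := by
    intro g hg
    obtain ⟨h, hg⟩ := mem_pre.1 hg
    exact mem_pre.2 ⟨h, mem_fixS.1 hg _ pt23_mem_oct0⟩
  obtain ⟨Q, hQ1, hQ2, hQ3, hR, hN⟩ :=
    q2 G V (ψ o0) (WG ψ) (RG V ρ) K (pre V ρ G23) hva hK1 hK2 hPN hRP
  refine ⟨Q, ⟨hQ1, hQ2, ?_⟩, hQ3⟩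
  -- elements of the octad group fixing the point `23`
  have fix23 : ∀ n : NN V, ρ n ∈ GO → ρ n • pt 23 = pt 23 → (n : G) ∈ NN Q := by
    intro n h1 h2
    refine hN ⟨?_, coe_mem_pre.2 h2⟩
    rw [hM]
    exact coe_mem_pre.2 h1
  -- elements of the octad group moving `23` to `0`
  have mov : ∀ n : NN V, ρ n ∈ GO → ρ n • pt 23 = pt 0 → (n : G) ∈ NN Q := by
    intro n h1 h2
    have hnM : (n : G) ∈ MM V (ψ o0) := by
      rw [hM]
      exact coe_mem_pre.2 h1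
    have e1 : cj (n : G) Q ⊓ V = WG ψ := by
      have h := cj_inf (n : G) Q V
      rw [cj_eq_of_mem n.2, hQ1, cj_eq_of_mem (hva.nW hnM)] at h
      exact h.symm
    have e2 : cj (n : G) Q ⊔ V = RG V ρ := by
      have h := cj_sup (n : G) Q V
      rw [cj_eq_of_mem n.2, hQ2, cj_eq_of_mem (hva.nR hnM)] at h
      exact h.symm
    have key := q3 G V ρ ψ st gol Q (cj (n : G) Q) hR hQ1 hQ2 e1 e2 (by
      intro x hx
      obtain ⟨hxN, hxO, hx23, hx0⟩ := mem_pre.1 hx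
      refine ⟨fix23 ⟨x, hxN⟩ hxO hx23, mem_NN_cj ?_⟩
      have := fix23 (n⁻¹ * ⟨x, hxN⟩ * n) (by
        rw [map_mul, map_mul, map_inv]
        exact mul_mem (mul_mem (inv_mem h1) hxO) h1) (by
        have hx0' : ρ ⟨x, hxN⟩ • pt 0 = pt 0 := hx0
        rw [map_mul, map_mul, map_inv, mul_smul, mul_smul, h2, hx0', ← h2, inv_smul_smul])
      simpa using this)
    exact mem_NN_of_cj key.symm
  intro m hm
  rw [hM] at hm
  obtain ⟨hmN, hmO⟩ := mem_pre.1 hm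
  by_cases hp : ρ ⟨m, hmN⟩ • pt 23 = pt 23
  · exact fix23 ⟨m, hmN⟩ hmO hp
  · have hpo : ρ ⟨m, hmN⟩ • pt 23 ∈ toSet oct0 := by
      have h0 : ρ ⟨m, hmN⟩ • toSet oct0 = toSet oct0 := hmO
      rw [← h0]
      exact (msmul_mem_msmul _).2 pt23_mem_oct0
    obtain ⟨g, g1, g2, g3⟩ := exists_smul_oct0_two oct0_mem pt23_mem_oct0 hpo (Ne.symm hp)
    obtain ⟨n, rfl⟩ := st.sur g
    have hn : (n : G) ∈ NN Q := fix23 n g1 g2
    have hn' := mov (n⁻¹ * ⟨m, hmN⟩) (by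
      rw [map_mul, map_inv]
      exact mul_mem (inv_mem (show ρ n ∈ GO from g1)) hmO) (by
      rw [map_mul, map_inv, mul_smul, ← g3, inv_smul_smul])
    have := mul_mem hn hn'
    simpa using this

end Cfsg.Agent.H89.RfQd
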